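import Cfsg.Agent.H53.CForm
import Cfsg.Agent.H53.SpClass

/-! Unipotent classes of `Sp_{2m}(q)`, `q` odd: all values of Wall's invariants occur. -/

set_option autoImplicit false

open Polynomial Module

namespace H64.SpU

open H53
open H56 (IsBasisMod SqCl sqcl)

universe u

variable {F : Type u} [Field F]

section sum

variable {V W : Type*} [AddCommGroup V] [Module F V] [AddCommGroup W] [Module F W]
  [FiniteDimensional F V] [FiniteDimensional F W]
  {B : V →ₗ[F] V →ₗ[F] F} {B' : W →ₗ[F] W →ₗ[F] F} {f : End F V} {g : End F W} {ε c : F}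

omit [FiniteDimensional F V] [FiniteDimensional F W] in
theorem nl_prodMap (k : ℕ) (v : V × W) :
    (nl (f.prodMap g) c ^ k) v = ((nl f c ^ k) v.1, (nl g c ^ k) v.2) := by
  rw [← aeval_X_sub_C_pow, aeval_prodMap, aeval_X_sub_C_pow, aeval_X_sub_C_pow]; rfl

theorem wd_sum (hB : IsSF (σ := RingHom.id F) ε B) (hB' : IsSF (σ := RingHom.id F) ε B')
    (hf : Inv B f) (hg : Inv B' g) (hc : c * c = 1) (k : ℕ) :
    wd (sumForm B B') (f.prodMap g) c k = wd B f c k * wd B' g c k := by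
  have hs : (sumForm (tf B f c k) (tf B' g c k)).IsRefl := fun x y h => by
    rw [sumForm_apply] at h ⊢
    rw [tf_symm hB hf hc, tf_symm hB' hg hc, ← mul_add, h, mul_zero]
  rw [wd, wd, wd, ← dsc_sumForm (tf_isRefl hB hf hc) (tf_isRefl hB' hg hc) hs]
  refine dsc_comp hs (LinearMap.prod
    (LinearMap.codRestrict _ (LinearMap.fst F V W ∘ₗ Submodule.subtype _) fun z =>
      congrArg Prod.fst ((nl_prodMap _ _).symm.trans z.2))
    (LinearMap.codRestrict _ (LinearMap.snd F V W ∘ₗ Submodule.subtype _) fun z =>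
      congrArg Prod.snd ((nl_prodMap _ _).symm.trans z.2))) (fun x y => ?_) fun w => ?_
  · rw [tf_apply, nl_prodMap]; rfl
  · refine ⟨⟨(w.1, w.2), (nl_prodMap _ _).trans (Prod.ext w.1.2 w.2.2)⟩, ?_⟩
    exact bot_le (a := LinearMap.ker _) (sub_eq_zero.2 rfl)

end sum

theorem nl_cyc (P : F[X]) (c : F) (j : ℕ) (a : AdjoinRoot P) :
    (nl (cyc P) c ^ j) a = AdjoinRoot.mk P ((X - C c) ^ j) * a := by
  rw [← aeval_X_sub_C_pow, aeval_cyc_apply]

theorem exists_split (P : F[X]) (c : F) (a : AdjoinRoot P) :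
    ∃ (d : F) (b : AdjoinRoot P), a = d • 1 + AdjoinRoot.mk P (X - C c) * b := by
  obtain ⟨Q, rfl⟩ := AdjoinRoot.mk_surjective a
  obtain ⟨R, hR⟩ := X_sub_C_dvd_sub_C_eval (a := c) (p := Q)
  refine ⟨Q.eval c, AdjoinRoot.mk P R, ?_⟩
  rw [← map_mul, ← hR, map_sub, Algebra.smul_def, mul_one]
  change _ = AdjoinRoot.mk P (C _) + _
  ring

theorem exists_block (h2 : (2 : F) ≠ 0) (k : ℕ) (κ : SqCl F) :
    ∃ B : AdjoinRoot ((X - C (1 : F)) ^ (k + 1)) →ₗ[F] AdjoinRoot ((X - C (1 : F)) ^ (k + 1)) →ₗ[F] F,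
      haveI : FiniteDimensional F (AdjoinRoot ((X - C (1 : F)) ^ (k + 1))) :=
        ((monic_X_sub_C (1 : F)).pow _).finite_adjoinRoot
      IsSF (σ := RingHom.id F) ((-1) ^ k) B ∧ Inv B (cyc ((X - C 1) ^ (k + 1))) ∧
        wd B (cyc _) 1 k = κ ∧ ∀ j, j ≠ k → wd B (cyc _) 1 j = 1 := by
  have : FiniteDimensional F (AdjoinRoot ((X - C (1 : F)) ^ (k + 1))) :=
    ((monic_X_sub_C (1 : F)).pow _).finite_adjoinRoot
  set P : F[X] := (X - C (1 : F)) ^ (k + 1) with hP
  have hk0 : AdjoinRoot.mk P ((X - C 1) ^ k) ≠ 0 := mk_pow_pred_ne_zero (irreducible_X_sub_C 1) k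
  have hk1 : ∀ j, k < j → AdjoinRoot.mk P ((X - C 1) ^ j) = 0 := fun j hj =>
    AdjoinRoot.mk_eq_zero.2 (pow_dvd_pow _ hj)
  have key : ∀ B : AdjoinRoot P →ₗ[F] AdjoinRoot P →ₗ[F] F,
      IsSF (σ := RingHom.id F) ((-1) ^ k) B → Inv B (cyc P) →
      B 1 (AdjoinRoot.mk P ((X - C 1) ^ k)) ≠ 0 ∧
        wd B (cyc P) 1 k = sqcl (B 1 (AdjoinRoot.mk P ((X - C 1) ^ k))) ∧
        ∀ j, j ≠ k → wd B (cyc P) 1 j = 1 := by
    intro B hB hf
    have h1 : (1 : AdjoinRoot P) ∈ LinearMap.ker (nl (cyc P) 1 ^ (k + 1)) := by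
      rw [LinearMap.mem_ker, nl_cyc, hk1 _ (Nat.lt_succ_self k), zero_mul]
    have hx : IsBasisMod (LinearMap.ker (tf B (cyc P) 1 k)) (fun _ : Unit => ⟨1, h1⟩) := by
      refine ⟨fun a ha i => ?_, fun v => ?_⟩
      · obtain ⟨y, hy⟩ := (mem_ker_tf hB hf (one_mul 1) _).1 ha
        rw [nl_cyc, nl_cyc, hk1 _ (Nat.lt_succ_self k), zero_mul] at hy
        simp only [Finset.univ_unique, Finset.sum_singleton, SetLike.val_smul, mul_smul_comm,
          mul_one] at hy
        exact (smul_eq_zero.1 hy.symm).resolve_right hk0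
      · obtain ⟨d, b, h⟩ := exists_split P 1 v.1
        refine ⟨fun _ => d, (mem_ker_tf hB hf (one_mul 1) _).2 ⟨b, ?_⟩⟩
        rw [nl_cyc, nl_cyc]
        simp only [Finset.univ_unique, Finset.sum_singleton, AddSubgroupClass.coe_sub,
          SetLike.val_smul]
        rw [h, add_sub_cancel_left, pow_succ, map_mul, mul_assoc]
    have h3 : H58.gramB (tf B (cyc P) 1 k) (fun _ : Unit => ⟨1, h1⟩) =
        B 1 (AdjoinRoot.mk P ((X - C 1) ^ k)) := by
      rw [H58.gramB, Matrix.det_unique, Matrix.of_apply, tf_apply, nl_cyc, mul_one]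
    refine ⟨h3 ▸ gramB_ne_zero_of_mod (tf_isRefl hB hf (one_mul 1)) hx, ?_, fun j hj => ?_⟩
    · rw [wd, dsc_eq (tf_isRefl hB hf (one_mul 1)) hx, h3]
    · refine dsc_zero fun y z => LinearMap.congr_fun ((mem_ker_tf hB hf (one_mul 1) y).2 ?_) z
      rcases lt_or_gt_of_ne hj with hj | hj
      · obtain ⟨d, b, h⟩ := exists_split P 1 y.1
        have h4 : AdjoinRoot.mk P ((X - C 1) ^ k) * y.1 = 0 := by
          rw [← nl_cyc]; exact nl_pow_of_le y.2 hj
        rw [h, mul_add, ← mul_assoc, ← map_mul, ← pow_succ, hk1 _ (Nat.lt_succ_self k), zero_mul,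
          add_zero, mul_smul_comm, mul_one] at h4
        obtain rfl := (smul_eq_zero.1 h4).resolve_right hk0
        refine ⟨b, ?_⟩
        rw [nl_cyc, nl_cyc, h, zero_smul, zero_add, pow_succ, map_mul, mul_assoc]
      · rw [nl_cyc, hk1 j hj, zero_mul]; exact zero_mem _
  obtain ⟨B, hB, hf⟩ := exists_form_cyc_sign h2 (one_mul (1 : F)) k
  obtain ⟨a, ha, rfl⟩ := H56.sqcl_surjective κ
  have h0 := (key B hB hf).1
  set b := B 1 (AdjoinRoot.mk P ((X - C 1) ^ k))
  have hB' : IsSF (σ := RingHom.id F) ((-1) ^ k) ((a / b) • B) :=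
    ⟨hB.1, hB.2, fun x y => by
      simp only [LinearMap.smul_apply, smul_eq_mul, RingHom.id_apply]
      rw [hB.symm, RingHom.id_apply]; ring,
    fun x hx => hB.nondeg x fun y => by
      have := hx y
      simp only [LinearMap.smul_apply, smul_eq_mul] at this
      exact (mul_eq_zero.1 this).resolve_left (div_ne_zero ha h0)⟩
  have hf' : Inv ((a / b) • B) (cyc P) := fun x y => by
    simp only [LinearMap.smul_apply]; rw [hf x y]
  refine ⟨_, hB', hf', ?_, (key _ hB' hf').2.2⟩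
  rw [(key _ hB' hf').2.1]
  simp only [LinearMap.smul_apply, smul_eq_mul]
  rw [div_mul_cancel₀ _ h0]

theorem exists_form (h2 : (2 : F) ≠ 0) {s : Multiset F[X]} (hs : Real (RingHom.id F) (-1) True s)
    (S : Finset ℕ) (hS : ∀ e ∈ S, Even e ∧ 0 < e) (κ : ℕ → SqCl F) :
    ∃ (V : Type u) (_ : AddCommGroup V) (_ : Module F V) (_ : FiniteDimensional F V)
      (B : V →ₗ[F] V →ₗ[F] F) (f : End F V), IsSF (σ := RingHom.id F) (-1) B ∧ Inv B f ∧
      ed f = s + S.val.map (fun k => (X - 1) ^ k) ∧ ∀ e ∈ S, wd B f 1 (e - 1) = κ e := by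
  induction S using Finset.induction_on with
  | empty =>
    obtain ⟨d, B, f, h1, -, h3, h4⟩ := hs
    exact ⟨_, _, _, inferInstance, B, f, h1, h3, by simpa using h4, by simp⟩
  | insert e S he ih =>
    obtain ⟨V, _, _, _, B, f, h1, h3, h4, h5⟩ := ih fun a ha => hS a (Finset.mem_insert_of_mem ha)
    obtain ⟨h6, h7⟩ := hS e (Finset.mem_insert_self _ _)
    obtain ⟨k, rfl⟩ := Nat.exists_eq_add_one_of_ne_zero h7.ne'
    have : FiniteDimensional F (AdjoinRoot ((X - C (1 : F)) ^ (k + 1))) :=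
      ((monic_X_sub_C (1 : F)).pow _).finite_adjoinRoot
    obtain ⟨B', h8, h9, h10, h11⟩ := exists_block h2 k ((wd B f 1 k)⁻¹ * κ (k + 1))
    rw [(Nat.not_even_iff_odd.1 (Nat.even_add_one.1 h6)).neg_one_pow] at h8
    refine ⟨_, _, _, inferInstance, sumForm B B', f.prodMap (cyc _), h1.sumForm h8, h3.prodMap h9,
      ?_, fun a ha => ?_⟩
    · rw [ed_prodMap, h4, ed_eq_singleton_of_sim_cyc (isPP_X_sub_C_pow 1 h7) (Sim.refl _),
        Finset.insert_val_of_notMem he, Multiset.map_cons, ← Multiset.singleton_add, C_1, add_assoc,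
        add_comm (Multiset.map _ _)]
    · rw [wd_sum h1 h8 h3 h9 (one_mul 1)]
      rcases Finset.mem_insert.1 ha with rfl | ha'
      · rw [Nat.add_sub_cancel, h10, mul_inv_cancel_left]
      · rw [h11, mul_one, h5 a ha']
        have h12 := (hS a ha).2
        intro h13
        exact he (by rwa [← h13, Nat.sub_add_cancel h12])

open Matrix in
/-- The number of classes of unipotent elements of Jordan type `μ` in the symplectic group. -/
theorem card_classes [Finite F] (h2 : (2 : F) ≠ 0) {l : Type} [Fintype l] [DecidableEq l]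
    {μ : Multiset ℕ} (h0 : ∀ k ∈ μ, 0 < k) (hs : μ.sum = 2 * Fintype.card l)
    (hμ : ∀ k, Odd k → Even (μ.count k)) :
    Nat.card {C : ConjClasses (symplecticGroup l F) // ∃ g : symplecticGroup l F,
      ConjClasses.mk g = C ∧ (IsNilpotent ((g : Matrix (l ⊕ l) (l ⊕ l) F) - 1) ∧
        mjt (g : Matrix (l ⊕ l) (l ⊕ l) F) = μ)} =
      2 ^ (μ.toFinset.filter fun j => Even j).card := by
  set S := μ.toFinset.filter fun j => Even j with hS
  have hed : ∀ g : symplecticGroup l F, IsNilpotent ((g : Matrix (l ⊕ l) (l ⊕ l) F) - 1) →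
      mjt (g : Matrix (l ⊕ l) (l ⊕ l) F) = μ →
      ed (toLin' (g : Matrix (l ⊕ l) (l ⊕ l) F)) = μ.map fun k => (X - 1) ^ k := fun g h1 h3 => by
    rw [ed_eq_map_jt ((isNilpotent_toLin'_sub_one _).2 h1), ← h3, mjt]
  rw [card_conjClasses_eq_of_invariant _ (fun (g : symplecticGroup l F) (e : S) =>
    wd (H54.spB l F) (toLin' (g : Matrix (l ⊕ l) (l ⊕ l) F)) 1 (e - 1)) fun a b ha hb => ?_]
  · rw [Nat.card_congr (Equiv.subtypeUnivEquiv fun κ => ?_), Nat.card_fun, H56.card_SqCl h2,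
      Nat.card_eq_finsetCard]
    have hle : S.val ≤ μ := (Finset.val_le_iff.2 (Finset.filter_subset _ _)).trans
      (Multiset.dedup_le μ)
    obtain ⟨ν, hν⟩ := Multiset.le_iff_exists_add.1 hle
    have h1 : Real (RingHom.id F) (-1) True (ν.map fun k => (X - 1) ^ k) := by
      refine (real_alt_unip_iff fun k hk => h0 k (hν ▸ Multiset.mem_add.2 (.inr hk))).2 fun k hk => ?_
      have := hμ k hk
      rwa [hν, Multiset.count_add, Multiset.count_eq_zero.2 fun h =>
        Nat.not_even_iff_odd.2 hk (Finset.mem_filter.1 h).2, zero_add] at this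
    classical
    obtain ⟨V, _, _, _, B, f, h3, h4, h5, h6⟩ := exists_form h2 h1 S (fun e he =>
      ⟨(Finset.mem_filter.1 he).2, h0 e (Multiset.mem_toFinset.1 (Finset.mem_filter.1 he).1)⟩)
      fun e => if h : e ∈ S then κ ⟨e, h⟩ else 1
    rw [← Multiset.map_add, add_comm, ← hν] at h5
    obtain ⟨g, hg⟩ := exists_sp_iso (l := l) h3 (fun x => (mul_eq_zero.1
      (show 2 * B x x = 0 by linear_combination h3.symm x x)).resolve_left h2)
      (by rw [← sum_jt f, (jt_eq_of_ed_eq_map h5).2, hs]) h4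
    have h7 := jt_eq_of_ed_eq_map (hg.sim.ed_eq ▸ h5)
    refine ⟨g, ⟨(isNilpotent_toLin'_sub_one _).1 h7.1, h7.2⟩, funext fun e => ?_⟩
    rw [← hg.wd_eq (isSF_spB l F) (inv_sp g) (one_mul 1), h6 e e.2, dif_pos e.2]
  · rw [isConj_sp_iff_iso]
    refine ⟨fun h => funext fun e => h.wd_eq (isSF_spB l F) (inv_sp b) (one_mul 1), fun h => ?_⟩
    refine wall h2 (isSF_spB l F) (isSF_spB l F) (inv_sp a) (inv_sp b)
      ((hed a ha.1 ha.2).trans (hed b hb.1 hb.2).symm) fun c hc k hk hP => ?_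
    classical
    have h3 := Multiset.one_le_count_iff_mem.2 hP
    rw [hed a ha.1 ha.2, count_map_X_sub_one_pow _ k.succ_pos] at h3
    split_ifs at h3 with h4
    · subst h4
      have h5 : Even (k + 1) := (neg_one_pow_eq_one_iff_even fun h =>
        h2 (by linear_combination -h)).1 (pow_succ' (-1 : F) k ▸ hk)
      exact congrFun h ⟨k + 1, Finset.mem_filter.2 ⟨Multiset.mem_toFinset.2
        (Multiset.one_le_count_iff_mem.1 h3), h5⟩⟩
    · omega

theorem two_ne_zero_of_odd [Fintype F] (h : Odd (Fintype.card F)) : (2 : F) ≠ 0 := fun h2 => by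
  have := FiniteField.cast_card_eq_zero F
  obtain ⟨k, hk⟩ := h
  rw [hk] at this
  push_cast at this
  rw [h2, zero_mul, zero_add] at this
  exact one_ne_zero this

end H64.SpU
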